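import Cfsg.Agent.H10.SuzT.S3.RChk0

set_option autoImplicit false
set_option linter.all false

namespace Cfsg.Agent.H10.SuzT

open Cfsg.Agent.H35 Cfsg.Spor

theorem s3_rall : ∀ p, p < 80 → s3_rf p = true := by
  apply allR_blocks s3_rf 80 10 1 _ (by decide)
  intro k hk
  interval_cases k
  · exact s3_rchk_0

theorem s3_circ_ok : circChk (fullW s3_rws s3_prels) s3_circT 0 s3_ccert = true := by decide +kernel
theorem s3_hc_ok : allR (fun c => hcChk s3_rsw s3_hc1T s3_hc2T c) 0 0 0 = true := by decide +kernel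
theorem s3_h0 : RData.aord (s3_rd.ent 0 1) = 0 := by decide +kernel

end Cfsg.Agent.H10.SuzT
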